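import Cfsg.Agent.H51.Ore.RuMain
import Cfsg.Agent.H713.Engine
import Cfsg.Agent.H667.RIM.Four2

/-!
# S4816, row Ru, `p = 7, 13, 29`: `NB p 2`

* 18 good classes: odd order, cyclic centralizer (16a and its inverse), 12a = (24a)²; three more (26abc) if the
  preimage of the centralizer of the element of order `13` is abelian;
* `nb_29` (`|C| = 29`), `nb_13`, `nb_7` (`|C| = 4 p`, an element of order 3 of the normalizer permutes the
  involutions).
-/

set_option autoImplicit false
set_option maxRecDepth 100000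

namespace Cfsg.Agent.H667.RIM.Ru

open Cfsg Subgroup
open Cfsg.Agent.SporadicB Cfsg.Agent.SporadicB.RuOrder Cfsg.Agent.SporRec.TCUpperCert Cfsg.Agent.SporRec.R3.Kernel
open Cfsg.Agent.RuD.Letters Cfsg.Agent.H51.Ore.Ru
open Cfsg.Agent.H667.RIM

/-! ### words -/

/-- comparison of two words -/
noncomputable def chkEq (u v : List ℕ) : Bool :=
  allL (fun b => Nat.beq (evalK u b) (evalK v b)) [0, 29, 580, 577]

theorem eq_of_chkEq {u v : List ℕ} (h : chkEq u v = true) : (wprod ml u : RuOrder.H) = wprod ml v := by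
  have h1 := (allL_iff _ _).1 h
  apply eq_of_base
  intro b hb
  rw [evalK_eq, evalK_eq]
  simp only [List.mem_cons, List.not_mem_nil, or_false] at hb
  rcases hb with rfl | rfl | rfl | rfl
  · exact Nat.eq_of_beq_eq_true (h1 0 (by simp))
  · exact Nat.eq_of_beq_eq_true (h1 29 (by simp))
  · exact Nat.eq_of_beq_eq_true (h1 580 (by simp))
  · exact Nat.eq_of_beq_eq_true (h1 577 (by simp))

theorem ne_of_chkEq {u v : List ℕ} (h : chkEq u v = false) : (wprod ml u : RuOrder.H) ≠ wprod ml v := by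
  intro e
  have h1 : chkEq u v = true := by
    refine (allL_iff _ _).2 fun b hb => ?_
    have hb' : b < 4060 := by
      simp only [List.mem_cons, List.not_mem_nil, or_false] at hb
      omega
    have h2 := evalK_eq u ⟨b, hb'⟩
    rw [e, evalK_eq] at h2
    change evalK v b = evalK u b at h2
    rw [h2]
    exact Nat.beq_refl _
  rw [h1] at h
  cases h

instance finH : Finite RuOrder.H := Nat.finite_of_card_ne_zero (by rw [card_H]; norm_num)

/-! ### good elements -/

theorem goodT_odd {w : List ℕ} (n : ℕ) (h : chkEq (rpw w n) [] = true) (hn : Odd n) :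
    GoodT (wprod ml w : RuOrder.H) := by
  left
  have h1 := eq_of_chkEq h
  rw [wprod_rpw] at h1
  exact Odd.of_dvd_nat hn (orderOf_dvd_of_pow_eq_one h1)

theorem goodT_cyc {G : Type*} [Group G] [Finite G] {g t : G} (h : g ∈ zpowers t)
    (hc : Nat.card ↥(centralizer ({g} : Set G)) ≤ orderOf t) : GoodT g := by
  right
  refine ⟨t, h, ?_⟩
  have h1 : zpowers t ≤ centralizer ({g} : Set G) := by
    intro x hx
    rw [mem_centralizer_singleton_iff]
    obtain ⟨i, rfl⟩ := mem_zpowers_iff.1 hx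
    obtain ⟨j, rfl⟩ := mem_zpowers_iff.1 h
    rw [← zpow_add, ← zpow_add, add_comm]
  have h2 : zpowers t = centralizer ({g} : Set G) := by
    refine eq_of_le_of_card_ge h1 ?_
    rwa [Nat.card_zpowers]
  intro x hx
  rw [h2, mem_centralizer_singleton_iff]
  exact hx

theorem order_eq {w : List ℕ} {n : ℕ} (hn : 0 < n) (l : List ℕ) (h : chkEq (rpw w n) [] = true)
    (hl : ∀ q : ℕ, q.Prime → q ∣ n → n / q ∈ l) (h' : ∀ k ∈ l, chkEq (rpw w k) [] = false) :
    orderOf (wprod ml w : RuOrder.H) = n := by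
  refine orderOf_eq_of_pow_and_pow_div_prime hn ?_ ?_
  · have h1 := eq_of_chkEq h
    rwa [wprod_rpw] at h1
  · intro q hq hd
    have h1 := ne_of_chkEq (h' _ (hl q hq hd))
    rwa [wprod_rpw] at h1

theorem prime_dvd {q a b k : ℕ} (hq : q.Prime) (ha : a.Prime) (hb : b.Prime) (h : q ∣ a ^ k * b) : q = a ∨ q = b := by
  rcases (Nat.Prime.dvd_mul hq).1 h with h | h
  · exact Or.inl ((Nat.prime_dvd_prime_iff_eq hq ha).1 (hq.dvd_of_dvd_pow h))
  · exact Or.inr ((Nat.prime_dvd_prime_iff_eq hq hb).1 h)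

theorem order_12b : orderOf (wprod ml w_12b : RuOrder.H) = 12 := by
  refine order_eq (by norm_num) [6, 4] (by decide +kernel) ?_ ?_
  · intro q hq hd
    rcases prime_dvd (k := 2) hq Nat.prime_two Nat.prime_three (show q ∣ 2 ^ 2 * 3 from hd) with rfl | rfl <;> simp
  · intro k hk
    simp only [List.mem_cons, List.not_mem_nil, or_false] at hk
    rcases hk with rfl | rfl <;> decide +kernel

theorem order_16a : orderOf (wprod ml w_16a : RuOrder.H) = 16 := by
  refine order_eq (by norm_num) [8] (by decide +kernel) ?_ ?_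
  · intro q hq hd
    rcases prime_dvd (k := 3) hq Nat.prime_two Nat.prime_two (show q ∣ 2 ^ 3 * 2 from hd) with rfl | rfl <;> simp
  · intro k hk
    simp only [List.mem_cons, List.not_mem_nil, or_false] at hk
    rcases hk with rfl
    decide +kernel

theorem order_20 {w : List ℕ} (h1 : chkEq (rpw w 20) [] = true) (h2 : chkEq (rpw w 10) [] = false)
    (h3 : chkEq (rpw w 4) [] = false) : orderOf (wprod ml w : RuOrder.H) = 20 := by
  refine order_eq (by norm_num) [10, 4] h1 ?_ ?_
  · intro q hq hd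
    rcases prime_dvd (k := 2) hq Nat.prime_two Nat.prime_five (show q ∣ 2 ^ 2 * 5 from hd) with rfl | rfl <;> simp
  · intro k hk
    simp only [List.mem_cons, List.not_mem_nil, or_false] at hk
    rcases hk with rfl | rfl
    exacts [h2, h3]

theorem order_24 {w : List ℕ} (h1 : chkEq (rpw w 24) [] = true) (h2 : chkEq (rpw w 12) [] = false)
    (h3 : chkEq (rpw w 8) [] = false) : orderOf (wprod ml w : RuOrder.H) = 24 := by
  refine order_eq (by norm_num) [12, 8] h1 ?_ ?_
  · intro q hq hd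
    rcases prime_dvd (k := 3) hq Nat.prime_two Nat.prime_three (show q ∣ 2 ^ 3 * 3 from hd) with rfl | rfl <;> simp
  · intro k hk
    simp only [List.mem_cons, List.not_mem_nil, or_false] at hk
    rcases hk with rfl | rfl
    exacts [h2, h3]

theorem order_24a : orderOf (wprod ml w_24a : RuOrder.H) = 24 :=
  order_24 (by decide +kernel) (by decide +kernel) (by decide +kernel)

/-- the class of order 12 with a square root of order 24 -/
theorem conj_12a : IsConj (wprod ml w_12a : RuOrder.H) ((wprod ml w_24a : RuOrder.H) ^ 2) := by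
  have h1 := eq_of_chkEq (u := [0, 5, 7, 5, 3, 0, 5, 7, 5, 1, 3, 6, 3, 2] ++ w_12a)
    (v := rpw w_24a 2 ++ [0, 5, 7, 5, 3, 0, 5, 7, 5, 1, 3, 6, 3, 2]) (by decide +kernel)
  rw [wprod_append, wprod_append, wprod_rpw] at h1
  exact isConj_iff.2 ⟨_, mul_inv_eq_iff_eq_mul.2 h1⟩

/-! ### lists of classes -/

/-- the good classes (without the inverse of 16a) -/
def gcls : List Cl := [
  ⟨[], 145926144000, (0, 0)⟩,
  ⟨w_3a, 2160, (1890, 0)⟩,
  ⟨w_5a, 300, (300, 300)⟩,
  ⟨w_5b, 1000, (250, 250)⟩,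
  ⟨w_7a, 28, (812, 812)⟩,
  ⟨w_12a, 24, (762, 360)⟩,
  ⟨w_12b, 12, (762, 372)⟩,
  ⟨w_13a, 52, (416, 728)⟩,
  ⟨w_15a, 15, (720, 720)⟩,
  ⟨w_16a, 16, (600, 794)⟩,
  ⟨w_20a, 20, (690, 820)⟩,
  ⟨w_20b, 20, (850, 740)⟩,
  ⟨w_20c, 20, (770, 850)⟩,
  ⟨w_24a, 24, (780, 540)⟩,
  ⟨w_24b, 24, (780, 732)⟩,
  ⟨w_29a, 29, (696, 580)⟩,
  ⟨w_29b, 29, (812, 696)⟩]

/-- the classes of order 26 -/
def gcls26 : List Cl := [
  ⟨w_26a, 52, (676, 1092)⟩,
  ⟨w_26b, 52, (676, 884)⟩,
  ⟨w_26c, 52, (884, 780)⟩]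

theorem gcls_sub : ∀ r ∈ gcls, r ∈ cls := by
  intro r hr
  simp only [gcls, List.mem_cons, List.not_mem_nil, or_false] at hr
  rcases hr with rfl | rfl | rfl | rfl | rfl | rfl | rfl | rfl | rfl | rfl | rfl | rfl | rfl | rfl | rfl | rfl | rfl <;>
    simp [cls]

theorem gcls26_sub : ∀ r ∈ gcls ++ gcls26, r ∈ cls := by
  intro r hr
  rcases List.mem_append.1 hr with h | h
  · exact gcls_sub r h
  · simp only [gcls26, List.mem_cons, List.not_mem_nil, or_false] at h
    rcases h with rfl | rfl | rfl <;> simp [cls]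

theorem gcls_good : ∀ r ∈ gcls, ∃ g : RuOrder.H, ConjClasses.mk g = ConjClasses.mk (wprod ml r.w) ∧ GoodT g := by
  have key : ∀ r ∈ cls, ∀ g, IsConj (wprod ml r.w) g →
      Nat.card ↥(centralizer ({g} : Set RuOrder.H)) ≤ r.c := by
    intro r hr g hg
    obtain ⟨c, rfl⟩ := isConj_iff.1 hg
    have h1 := (cls_ok r hr).1
    refine le_trans (Nat.card_le_card_of_injective (fun x : ↥(centralizer ({c * wprod ml r.w * c⁻¹} : Set RuOrder.H)) =>
      (⟨c⁻¹ * x * c, ?_⟩ : ↥(centralizer ({wprod ml r.w} : Set RuOrder.H)))) ?_) h1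
    · rw [mem_centralizer_singleton_iff]
      have h2 := mem_centralizer_singleton_iff.1 x.2
      calc c⁻¹ * (x : RuOrder.H) * c * wprod ml r.w = c⁻¹ * (x * (c * wprod ml r.w * c⁻¹)) * c := by group
        _ = c⁻¹ * ((c * wprod ml r.w * c⁻¹) * x) * c := by rw [h2]
        _ = _ := by group
    · intro x y hxy
      have h2 : c⁻¹ * (x : RuOrder.H) * c = c⁻¹ * y * c := congrArg Subtype.val hxy
      exact Subtype.ext (mul_left_cancel (mul_right_cancel h2))
  have h0 : ∀ r ∈ cls, orderOf (wprod ml r.w : RuOrder.H) = r.c → GoodT (wprod ml r.w : RuOrder.H) := fun r hr ho =>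
    goodT_cyc (mem_zpowers _) (by rw [ho]; exact key r hr _ (IsConj.refl _))
  intro r hr
  have hr' := gcls_sub r hr
  simp only [gcls, List.mem_cons, List.not_mem_nil, or_false] at hr
  rcases hr with rfl | rfl | rfl | rfl | rfl | rfl | rfl | rfl | rfl | rfl | rfl | rfl | rfl | rfl | rfl | rfl | rfl
  · exact ⟨_, rfl, goodT_odd 1 (by decide +kernel) (by decide)⟩
  · exact ⟨_, rfl, goodT_odd 3 (by decide +kernel) (by decide)⟩
  · exact ⟨_, rfl, goodT_odd 5 (by decide +kernel) (by decide)⟩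
  · exact ⟨_, rfl, goodT_odd 5 (by decide +kernel) (by decide)⟩
  · exact ⟨_, rfl, goodT_odd 7 (by decide +kernel) (by decide)⟩
  · refine ⟨(wprod ml w_24a : RuOrder.H) ^ 2, (ConjClasses.mk_eq_mk_iff_isConj.2 conj_12a).symm,
      goodT_cyc (t := wprod ml w_24a) (pow_mem (mem_zpowers _) 2) ?_⟩
    rw [order_24a]
    exact key _ hr' _ conj_12a
  · exact ⟨_, rfl, h0 _ hr' order_12b⟩
  · exact ⟨_, rfl, goodT_odd 13 (by decide +kernel) (by decide)⟩
  · exact ⟨_, rfl, goodT_odd 15 (by decide +kernel) (by decide)⟩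
  · exact ⟨_, rfl, h0 _ hr' order_16a⟩
  · exact ⟨_, rfl, h0 _ hr' (order_20 (by decide +kernel) (by decide +kernel) (by decide +kernel))⟩
  · exact ⟨_, rfl, h0 _ hr' (order_20 (by decide +kernel) (by decide +kernel) (by decide +kernel))⟩
  · exact ⟨_, rfl, h0 _ hr' (order_20 (by decide +kernel) (by decide +kernel) (by decide +kernel))⟩
  · exact ⟨_, rfl, h0 _ hr' order_24a⟩
  · exact ⟨_, rfl, h0 _ hr' (order_24 (by decide +kernel) (by decide +kernel) (by decide +kernel))⟩
  · exact ⟨_, rfl, goodT_odd 29 (by decide +kernel) (by decide)⟩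
  · exact ⟨_, rfl, goodT_odd 29 (by decide +kernel) (by decide)⟩

theorem good_16inv : GoodT (wprod ml w_16a : RuOrder.H)⁻¹ := by
  have hmem : (⟨w_16a, 16, (600, 794)⟩ : Cl) ∈ cls := by simp [cls]
  refine goodT_cyc (t := wprod ml w_16a) (inv_mem (mem_zpowers _)) ?_
  rw [order_16a, Cfsg.Agent.H235.Ore.ClassList.card_cent_inv]
  exact (cls_ok _ hmem).1

/-- the set of classes of a list, and the inverse of 16a -/
noncomputable def FF (l : List Cl) : Finset (ConjClasses RuOrder.H) := by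
  classical
  exact insert (ConjClasses.mk (wprod ml w_16a : RuOrder.H)⁻¹)
    (l.map fun r => ConjClasses.mk (wprod ml r.w : RuOrder.H)).toFinset

theorem mem_FF {l : List Cl} {C : ConjClasses RuOrder.H} : C ∈ FF l ↔
    C = ConjClasses.mk (wprod ml w_16a : RuOrder.H)⁻¹ ∨ ∃ r ∈ l, ConjClasses.mk (wprod ml r.w : RuOrder.H) = C := by
  classical
  unfold FF
  rw [Finset.mem_insert, List.mem_toFinset, List.mem_map]

theorem card_FF {l : List Cl} (hl : ∀ r ∈ l, r ∈ cls) (hn : (l.map Cl.p).Nodup) : (FF l).card = l.length + 1 := by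
  classical
  have hmem : (⟨w_16a, 16, (600, 794)⟩ : Cl) ∈ cls := by simp [cls]
  have h1 : (l.map fun r => ConjClasses.mk (wprod ml r.w : RuOrder.H)).map phiC = l.map Cl.p := by
    rw [List.map_map]
    apply List.map_congr_left
    intro r hr
    exact (cls_ok r (hl r hr)).2.1
  have h2 : (l.map fun r => ConjClasses.mk (wprod ml r.w : RuOrder.H)).Nodup := by
    apply List.Nodup.of_map phiC
    rw [h1]
    exact hn
  unfold FF
  rw [Finset.card_insert_of_notMem, List.toFinset_card_of_nodup h2, List.length_map]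
  rw [List.mem_toFinset, List.mem_map]
  rintro ⟨r, hr, h4⟩
  have h5 : r = ⟨w_16a, 16, (600, 794)⟩ := by
    refine List.inj_on_of_nodup_map cls_nodup (hl r hr) hmem ?_
    have h6 := congrArg phiC h4
    have h7 : phiC (ConjClasses.mk (wprod ml w_16a : RuOrder.H)⁻¹) = (600, 794) := by
      refine Eq.trans ?_ (cls_ok _ hmem).2.1
      exact Prod.ext (phi_inv 2 _) (phi_inv 3 _)
    rw [← (cls_ok r (hl r hr)).2.1]
    exact h6.trans h7
  rw [h5] at h4
  exact not_conj_16 (ConjClasses.mk_eq_mk_iff_isConj.1 h4)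

theorem FF_good : ∀ C ∈ FF gcls, ∃ g : RuOrder.H, ConjClasses.mk g = C ∧ GoodT g := by
  intro C hC
  rcases mem_FF.1 hC with rfl | ⟨r, hr, rfl⟩
  · exact ⟨_, rfl, good_16inv⟩
  · exact gcls_good r hr

theorem card_FF18 : (FF gcls).card = 18 := card_FF gcls_sub (by decide +kernel)

theorem card_FF21 : (FF (gcls ++ gcls26)).card = 21 := card_FF gcls26_sub (by decide +kernel)

end Cfsg.Agent.H667.RIM.Ru
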