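import Cfsg.Agent.H667.RIM.Ru

/-!
# S4816, row Ru, `p = 7, 13, 29`: `NB p 2`
-/

set_option autoImplicit false
set_option maxRecDepth 100000

namespace Cfsg.Agent.H667.RIM.Ru

open Cfsg Subgroup
open Cfsg.Agent.SporadicB Cfsg.Agent.SporadicB.RuOrder Cfsg.Agent.SporRec.TCUpperCert Cfsg.Agent.SporRec.R3.Kernel
open Cfsg.Agent.RuD.Letters Cfsg.Agent.H51.Ore.Ru
open Cfsg.Agent.H667.RIM Cfsg.Agent.H713.Count
open Cfsg.Agent.Characters.Core Cfsg.Agent.H622.Over

theorem fac_one {p n : ℕ} (hp : p.Prime) (hn : n ≠ 0) (h1 : p ∣ n) (h2 : ¬ p ^ 2 ∣ n) : n.factorization p = 1 := by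
  apply le_antisymm
  · by_contra h
    push Not at h
    exact h2 ((hp.pow_dvd_iff_le_factorization hn).2 h)
  · exact (hp.pow_dvd_iff_le_factorization hn).1 (by rwa [pow_one])

/-- the order of the normalizer from Sylow's theorem -/
theorem card_norm {p : ℕ} [hp : Fact p.Prime] {k w : ℕ} (h1 : p ∣ 145926144000) (h2 : ¬ p ^ 2 ∣ 145926144000)
    {y : RuOrder.H} (hy : orderOf y = p) (hC : Nat.card ↥(centralizer ({y} : Set RuOrder.H)) = p * k)
    (h : ∀ e ∈ (p - 1).divisors, e * k % p = 145926144000 / p % p → e = w) :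
    Nat.card ↥(normalizer ((zpowers y : Subgroup RuOrder.H) : Set RuOrder.H)) = w * (p * k) := by
  have hG : (Nat.card RuOrder.H).factorization p = 1 := by
    rw [card_H]
    exact fac_one hp.out (by norm_num) h1 h2
  have hyp : y ^ p = 1 := by rw [← hy]; exact pow_orderOf_eq_one y
  have h3 : (fus (p := p) y).card = w := by
    refine h _ ?_ ?_
    · rw [Nat.mem_divisors]
      exact ⟨⟨_, (card_fus_mul_card_sing hyp).symm⟩, by have := hp.out.one_lt; omega⟩
    · have h4 := Cfsg.Agent.H713.card_fus_mul hG hy hC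
      rw [card_H] at h4
      exact h4
  rw [Cfsg.Agent.H713.card_normalizer_zpowers hy, h3, hC]

/-- `|C(y)| = 4 p` -/
theorem card_four {G : Type*} [Group G] [Finite G] {p : ℕ} (hp : p.Prime) {y t b : G}
    (hy : y ^ p = 1) (hy1 : y ≠ 1) (ht : t ^ 2 = y) (ha1 : t ^ p ≠ 1) (hb : b * y = y * b) (hb2 : b ^ 2 = 1) (hb1 : b ≠ 1)
    (hba : b ≠ t ^ p) (hC : Nat.card ↥(centralizer ({y} : Set G)) ≤ 4 * p) :
    Nat.card ↥(centralizer ({y} : Set G)) = p * 4 := by
  have hto : orderOf t = 2 * p := by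
    refine orderOf_eq_of_pow_and_pow_div_prime (Nat.mul_pos (by norm_num) hp.pos) ?_ ?_
    · rw [pow_mul, ht, hy]
    · intro q hq hd
      rcases (Nat.Prime.dvd_mul hq).1 hd with h | h
      · have h1 := (Nat.prime_dvd_prime_iff_eq hq Nat.prime_two).1 h
        rw [h1, Nat.mul_div_cancel_left _ (by norm_num)]
        exact ha1
      · have h1 := (Nat.prime_dvd_prime_iff_eq hq hp).1 h
        rw [h1, Nat.mul_div_cancel _ hp.pos, ht]
        exact hy1
  have htC : zpowers t ≤ centralizer ({y} : Set G) := by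
    rw [zpowers_le, mem_centralizer_singleton_iff, ← ht]
    exact (Commute.pow_right (Commute.refl t) 2).eq
  have hd := card_dvd_of_le htC
  rw [Nat.card_zpowers, hto] at hd
  obtain ⟨m, hm⟩ := hd
  have hm0 : 0 < m := by
    rcases Nat.eq_zero_or_pos m with h | h
    · rw [h, mul_zero] at hm
      exact absurd hm Nat.card_pos.ne'
    · exact h
  have hm2 : m ≤ 2 := by
    rw [hm] at hC
    have h1 : 2 * p * m ≤ 2 * p * 2 := by
      calc 2 * p * m ≤ 4 * p := hC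
        _ = 2 * p * 2 := by ring
    exact Nat.le_of_mul_le_mul_left h1 (Nat.mul_pos (by norm_num) hp.pos)
  have hm1 : m ≠ 1 := by
    rintro rfl
    have h1 : zpowers t = centralizer ({y} : Set G) := by
      refine eq_of_le_of_card_ge htC ?_
      rw [hm, Nat.card_zpowers, hto, mul_one]
    have h2 : b ∈ zpowers t := by
      rw [h1, mem_centralizer_singleton_iff]
      exact hb
    obtain ⟨i, hi⟩ := mem_powers_iff_mem_zpowers.2 h2
    change t ^ i = b at hi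
    have h3 : 2 * p ∣ 2 * i := by
      rw [← hto]
      apply orderOf_dvd_of_pow_eq_one
      rw [mul_comm, pow_mul, hi, hb2]
    obtain ⟨j, rfl⟩ := Nat.dvd_of_mul_dvd_mul_left (by norm_num) h3
    have h4 : (t ^ p) ^ 2 = 1 := by rw [← pow_mul, mul_comm, pow_mul, ht, hy]
    rcases Nat.even_or_odd' j with ⟨k, rfl | rfl⟩
    · apply hb1
      rw [← hi, pow_mul, pow_mul, h4, one_pow]
    · apply hba
      rw [← hi, pow_mul, pow_succ, pow_mul, h4, one_pow, one_mul]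
  have : m = 2 := by omega
  rw [hm, this]
  ring

/-- **`|C(y)| = 4 p`** -/
theorem nb_four {p w : ℕ} [hp : Fact p.Prime] (hp2 : p ≠ 2) (hw0 : 0 < w) (hd1 : p ∣ 145926144000)
    (hd2 : ¬ p ^ 2 ∣ 145926144000) {y t s : RuOrder.H} {j : ℕ}
    (hy : y ^ p = 1) (hy1 : y ≠ 1) (ht : t ^ 2 = y) (ha1 : t ^ p ≠ 1) (hs3 : s ^ 3 = 1) (hsy : s * y = y ^ j * s)
    (hsa : s * t ^ p ≠ t ^ p * s) (hss : s * s * t ^ p = t ^ p * s * t ^ p * s)
    (hby : s * t ^ p * s * s * y = y * (s * t ^ p * s * s))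
    (hC : Nat.card ↥(centralizer ({y} : Set RuOrder.H)) ≤ 4 * p)
    (he : ∀ e ∈ (p - 1).divisors, e * 4 % p = 145926144000 / p % p → e = w)
    (h18 : w ^ 2 + (p - 1) < w * 18) (F' : Finset (ConjClasses RuOrder.H))
    (hF' : ∀ C ∈ F', ∃ g : RuOrder.H, ConjClasses.mk g = C ∧ (GoodT g ∨ ∃ i : ℕ, g ^ i = y))
    (hlt' : (w ^ 2 + (p - 1)) + 3 * ((w / 3) ^ 2 + (p - 1)) < w * F'.card) : Cfsg.Agent.H665.RIM.NB p 2 RuOrder.H := by
  have hsi : s⁻¹ = s * s := inv_eq_of_mul_eq_one_right (by rw [← pow_three]; exact hs3)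
  have ha2 : (t ^ p) ^ 2 = 1 := by rw [← pow_mul, mul_comm, pow_mul, ht, hy]
  have hbe : s * t ^ p * s⁻¹ = s * t ^ p * s * s := by rw [hsi]; group
  have hne : s * t ^ p * s⁻¹ ≠ t ^ p := fun h => hsa (mul_inv_eq_iff_eq_mul.1 h)
  have hCe : Nat.card ↥(centralizer ({y} : Set RuOrder.H)) = p * 4 := by
    refine card_four hp.out hy hy1 ht ha1 (b := s * t ^ p * s⁻¹) ?_ ?_ ?_ hne hC
    · rw [hbe]; exact hby
    · rw [conj_pow, ha2, mul_one, mul_inv_cancel]
    · intro h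
      rw [conj_eq_one_iff] at h
      exact ha1 h
  have hyo : orderOf y = p := orderOf_eq_prime hy hy1
  have hN := card_norm hd1 hd2 hyo hCe he
  have hsN : s ∈ normalizer ((zpowers y : Subgroup RuOrder.H) : Set RuOrder.H) := by
    refine mem_normalizer_fintype fun n hn => ?_
    obtain ⟨i, rfl⟩ := mem_zpowers_iff.1 hn
    show s * y ^ i * s⁻¹ ∈ zpowers y
    rw [← conj_zpow, mul_inv_eq_iff_eq_mul.2 hsy]
    exact zpow_mem (pow_mem (mem_zpowers y) j) i
  refine nb_of fun G _ _ σ hσ hZ hm c hc => ?_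
  refine exists_four hσ hZ hm hp2 (by rw [card_H]; exact hd2) hyo hw0 hCe hN hc hsN hs3 (a := t ^ p) ?_ ha2 ha1 hne ?_
    (FF gcls) FF_good (by rw [card_FF18]; exact h18) F' hF' hlt'
  · rw [mem_centralizer_singleton_iff, ← ht]
    exact ((Commute.refl t).pow_pow p 2).eq
  · have h1 : s * (s * t ^ p * s⁻¹) * s⁻¹ = s * s * t ^ p * s⁻¹ * s⁻¹ := by group
    rw [h1, hss]
    group

/-- `y = 13a`, `26c` -/
theorem nb_13 : Cfsg.Agent.H665.RIM.NB 13 2 RuOrder.H := by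
  have : Fact (Nat.Prime 13) := ⟨by norm_num⟩
  have hmem : (⟨w_13a, 52, (416, 728)⟩ : Cl) ∈ cls := by simp [cls]
  set T : List ℕ := [8, 6, 7] ++ w_26c ++ [3, 1, 4] with hT
  set s : List ℕ := [3, 4, 1, 3, 4, 1, 3, 4, 1, 3, 4, 1] with hs
  have r1 := eq_of_chkEq (u := rpw w_13a 13) (v := []) (by decide +kernel)
  have r2 := ne_of_chkEq (u := w_13a) (v := []) (by decide +kernel)
  have r3 := eq_of_chkEq (u := rpw T 2) (v := w_13a) (by decide +kernel)
  have r4 := ne_of_chkEq (u := rpw T 13) (v := []) (by decide +kernel)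
  have r5 := eq_of_chkEq (u := rpw s 3) (v := []) (by decide +kernel)
  have r6 := eq_of_chkEq (u := s ++ w_13a) (v := rpw w_13a 3 ++ s) (by decide +kernel)
  have r7 := ne_of_chkEq (u := s ++ rpw T 13) (v := rpw T 13 ++ s) (by decide +kernel)
  have r8 := eq_of_chkEq (u := s ++ s ++ rpw T 13) (v := rpw T 13 ++ s ++ rpw T 13 ++ s) (by decide +kernel)
  have r9 := eq_of_chkEq (u := s ++ rpw T 13 ++ s ++ s ++ w_13a) (v := w_13a ++ (s ++ rpw T 13 ++ s ++ s))
    (by decide +kernel)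
  simp only [wprod_append, wprod_rpw] at r1 r3 r4 r5 r6 r7 r8 r9
  have q1 := eq_of_chkEq (u := [5, 3, 8, 0, 5, 7, 6, 2, 6, 5, 7, 6, 7, 5, 7, 5] ++ rpw w_26a 14)
    (v := w_13a ++ [5, 3, 8, 0, 5, 7, 6, 2, 6, 5, 7, 6, 7, 5, 7, 5]) (by decide +kernel)
  have q2 := eq_of_chkEq (u := [3, 3, 5, 3, 5, 2, 0, 7, 4, 1, 7, 5, 7, 7, 6] ++ rpw w_26b 2)
    (v := w_13a ++ [3, 3, 5, 3, 5, 2, 0, 7, 4, 1, 7, 5, 7, 7, 6]) (by decide +kernel)
  have q3 := eq_of_chkEq (u := [8, 6, 7] ++ rpw w_26c 2) (v := w_13a ++ [8, 6, 7]) (by decide +kernel)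
  simp only [wprod_append, wprod_rpw] at q1 q2 q3
  refine nb_four (w := 12) (y := wprod ml w_13a) (t := wprod ml T) (s := wprod ml s) (j := 3) (by norm_num) (by norm_num)
    (by norm_num) (by norm_num) r1 r2 r3 r4 r5 r6 r7 r8 r9 (cls_ok _ hmem).1 (by decide) (by norm_num)
    (FF (gcls ++ gcls26)) ?_ (by rw [card_FF21]; norm_num)
  have conj : ∀ (q t y : RuOrder.H) (i : ℕ), q * t ^ i = y * q → (q * t * q⁻¹) ^ i = y := by
    intro q t y i h
    rw [conj_pow, h, mul_inv_cancel_right]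
  have mkc : ∀ q t : RuOrder.H, ConjClasses.mk (q * t * q⁻¹) = ConjClasses.mk t := fun q t =>
    ConjClasses.mk_eq_mk_iff_isConj.2 (isConj_iff.2 ⟨q⁻¹, by group⟩)
  intro C hC
  rcases mem_FF.1 hC with rfl | ⟨r, hr, rfl⟩
  · exact ⟨_, rfl, Or.inl good_16inv⟩
  · rcases List.mem_append.1 hr with h | h
    · obtain ⟨g, hg, hgg⟩ := gcls_good r h
      exact ⟨g, hg, Or.inl hgg⟩
    · simp only [gcls26, List.mem_cons, List.not_mem_nil, or_false] at h
      rcases h with rfl | rfl | rfl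
      · exact ⟨_, mkc _ _, Or.inr ⟨_, conj _ _ _ _ q1⟩⟩
      · exact ⟨_, mkc _ _, Or.inr ⟨_, conj _ _ _ _ q2⟩⟩
      · exact ⟨_, mkc _ _, Or.inr ⟨_, conj _ _ _ _ q3⟩⟩

/-- `y = 7a`, `14c` -/
theorem nb_7 : Cfsg.Agent.H665.RIM.NB 7 2 RuOrder.H := by
  have : Fact (Nat.Prime 7) := ⟨by norm_num⟩
  have hmem : (⟨w_7a, 28, (812, 812)⟩ : Cl) ∈ cls := by simp [cls]
  set T : List ℕ := [8] ++ w_14c ++ [4] with hT
  set s : List ℕ := [8, 2, 8, 2] with hs
  have r1 := eq_of_chkEq (u := rpw w_7a 7) (v := []) (by decide +kernel)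
  have r2 := ne_of_chkEq (u := w_7a) (v := []) (by decide +kernel)
  have r3 := eq_of_chkEq (u := rpw T 2) (v := w_7a) (by decide +kernel)
  have r4 := ne_of_chkEq (u := rpw T 7) (v := []) (by decide +kernel)
  have r5 := eq_of_chkEq (u := rpw s 3) (v := []) (by decide +kernel)
  have r6 := eq_of_chkEq (u := s ++ w_7a) (v := rpw w_7a 2 ++ s) (by decide +kernel)
  have r7 := ne_of_chkEq (u := s ++ rpw T 7) (v := rpw T 7 ++ s) (by decide +kernel)
  have r8 := eq_of_chkEq (u := s ++ s ++ rpw T 7) (v := rpw T 7 ++ s ++ rpw T 7 ++ s) (by decide +kernel)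
  have r9 := eq_of_chkEq (u := s ++ rpw T 7 ++ s ++ s ++ w_7a) (v := w_7a ++ (s ++ rpw T 7 ++ s ++ s))
    (by decide +kernel)
  simp only [wprod_append, wprod_rpw] at r1 r3 r4 r5 r6 r7 r8 r9
  refine nb_four (w := 6) (y := wprod ml w_7a) (t := wprod ml T) (s := wprod ml s) (j := 2) (by norm_num) (by norm_num)
    (by norm_num) (by norm_num) r1 r2 r3 r4 r5 r6 r7 r8 r9 (cls_ok _ hmem).1 (by decide) (by norm_num)
    (FF gcls) ?_ (by rw [card_FF18]; norm_num)
  intro C hC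
  obtain ⟨g, hg, hgg⟩ := FF_good C hC
  exact ⟨g, hg, Or.inl hgg⟩

/-- `y = 29a` -/
theorem nb_29 : Cfsg.Agent.H665.RIM.NB 29 2 RuOrder.H := by
  have : Fact (Nat.Prime 29) := ⟨by norm_num⟩
  have hmem : (⟨w_29a, 29, (696, 580)⟩ : Cl) ∈ cls := by simp [cls]
  have r1 := eq_of_chkEq (u := rpw w_29a 29) (v := []) (by decide +kernel)
  have r2 := ne_of_chkEq (u := w_29a) (v := []) (by decide +kernel)
  rw [wprod_rpw] at r1
  have hyo : orderOf (wprod ml w_29a : RuOrder.H) = 29 := orderOf_eq_prime r1 r2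
  have hC : Nat.card ↥(centralizer ({(wprod ml w_29a : RuOrder.H)} : Set RuOrder.H)) = 29 * 1 := by
    apply le_antisymm
    · exact (cls_ok _ hmem).1
    · have h1 : zpowers (wprod ml w_29a : RuOrder.H) ≤ centralizer ({(wprod ml w_29a : RuOrder.H)} : Set RuOrder.H) := by
        rw [zpowers_le, mem_centralizer_singleton_iff]
      have h2 := Nat.card_le_card_of_injective _ (Subgroup.inclusion_injective h1)
      rwa [Nat.card_zpowers, hyo] at h2
  have hN := card_norm (w := 14) (by norm_num) (by norm_num) hyo hC (by decide)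
  refine nb_of fun G _ _ σ hσ hZ hm c hc => ?_
  exact exists_of_lt hσ hZ hm (by norm_num) (by rw [card_H]; norm_num) hyo (by norm_num) hC hN c (FF gcls) FF_good
    (by rw [card_FF18]; norm_num)

end Cfsg.Agent.H667.RIM.Ru
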