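import Cfsg.Agent.H667.RIM.RuNB
import Cfsg.Agent.H507.RIM.Iso
import Cfsg.Agent.H306.RIM.Tool
import Cfsg.Agent.S2051

/-!
# S4816, row Ru, `p = 7, 13, 29`: `NBall p S`
-/

set_option autoImplicit false

namespace Cfsg.Agent.H667.RIM.Ru

open Cfsg Subgroup
open Cfsg.Agent.SporadicB Cfsg.Agent.H665.RIM

universe u

theorem nball_H {p : ℕ} (h : NB p 2 RuOrder.H) : NBall p RuOrder.H := by
  intro m hm2 hpm E _ _ π hπ hk hc hcard l hl
  have h1 := Cfsg.Agent.H306.RIM.ker_dvd Cfsg.Agent.S2051.result Cfsg.Agent.RuLat.Main.equiv.symm π hπ hk hc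
  rw [hcard] at h1
  have h2 : m = 2 := le_antisymm (Nat.le_of_dvd (by norm_num) h1) hm2
  subst h2
  exact h E π hπ hk hc hcard l hl

variable {S : Type u} [Group S]

theorem nball_of {p : ℕ} (h : Spor.IsoRu S) (hp : NB p 2 RuOrder.H) : NBall p S := by
  obtain ⟨e⟩ := h
  exact Cfsg.Agent.H507.RIM.nball_congr (e.trans Cfsg.Agent.RuLat.Main.equiv).symm (nball_H hp)

/-- **S4816, Ru, `p = 7`** -/
theorem nball_7 (h : Spor.IsoRu S) : NBall 7 S := nball_of h nb_7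

/-- **S4816, Ru, `p = 13`** -/
theorem nball_13 (h : Spor.IsoRu S) : NBall 13 S := nball_of h nb_13

/-- **S4816, Ru, `p = 29`** -/
theorem nball_29 (h : Spor.IsoRu S) : NBall 29 S := nball_of h nb_29

end Cfsg.Agent.H667.RIM.Ru
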